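import Mathlib
import Cfsg.Agent.Frobenius.Zassenhaus.Main

/-! # Structure of fixed-point-free groups: the maximal normal Z-subgroup -/

set_option autoImplicit false

namespace CfsgLib.Frobenius.Zass

open CfsgLib.Frobenius

variable {G : Type*} [Group G] [Finite G]

/-- A subgroup with cyclic Sylow 2-subgroups has a normal 2-complement, normal in the whole group
if the subgroup is normal. -/
theorem exists_odd_complement (H : Subgroup G) (hH : H.Normal)
    (hc : ∀ P : Sylow 2 H, IsCyclic (P : Subgroup H)) :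
    ∃ O : Subgroup G, O.Normal ∧ O ≤ H ∧ Odd (Nat.card O) ∧ ∃ k, Nat.card H = 2 ^ k * Nat.card O := by
  by_cases h2 : 2 ∣ Nat.card H
  swap
  · exact ⟨H, hH, le_rfl, Nat.odd_iff.2 (Nat.two_dvd_ne_zero.1 h2), 0, by rw [pow_zero, one_mul]⟩
  let P : Sylow 2 H := default
  have hmin : (Nat.card H).minFac = 2 := (Nat.minFac_eq_two_iff _).2 h2
  have hnc := IsCyclic.normalizer_le_centralizer hmin (hc P)
  set f := MonoidHom.transferSylow P hnc with hf
  have hker := MonoidHom.ker_transferSylow_isComplement' P hnc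
  obtain ⟨k, hk⟩ := P.2.exists_card_eq
  have hcard : Nat.card f.ker * 2 ^ k = Nat.card H := hk ▸ hker.card_mul
  have hodd : Odd (Nat.card f.ker) := by
    rw [Nat.odd_iff]
    refine Nat.two_dvd_ne_zero.1 fun hd => ?_
    have hidx : (P : Subgroup H).index = Nat.card f.ker := hker.index_eq_card
    exact P.not_dvd_index (hidx ▸ hd)
  have hmem : ∀ x : H, x ∈ f.ker ↔ Odd (orderOf x) := by
    intro x
    constructor
    · intro hx; exact hodd.of_dvd_nat (Subgroup.orderOf_dvd_natCard _ hx)
    · intro hx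
      rw [MonoidHom.mem_ker, ← orderOf_eq_one_iff]
      have h1 : orderOf (f x) ∣ 2 ^ k := hk ▸ orderOf_dvd_natCard (f x)
      exact Nat.eq_one_of_dvd_coprimes (((Nat.coprime_two_left.2 hx).pow_left k))
        h1 (orderOf_map_dvd f x)
  refine ⟨f.ker.map H.subtype, ⟨?_⟩, Subgroup.map_subtype_le _, ?_, k, ?_⟩
  · rintro _ ⟨x, hx, rfl⟩ g
    refine ⟨⟨g * (x : G) * g⁻¹, hH.conj_mem _ x.2 g⟩, (hmem _).2 ?_, rfl⟩
    rw [← Subgroup.orderOf_coe, orderOf_conj, Subgroup.orderOf_coe]
    exact (hmem x).1 hx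
  · rw [Subgroup.card_map_of_injective H.subtype_injective]; exact hodd
  · rw [Subgroup.card_map_of_injective H.subtype_injective, mul_comm, hcard]

/-- The map of a quaternion group onto the four-group. -/
def quatToFour (m : ℕ) (hm : 1 ≤ m) : QuaternionGroup (2 ^ m) →* DihedralGroup 2 :=
  have hd : (2 : ℕ) ∣ 2 * 2 ^ m := dvd_mul_right 2 _
  MonoidHom.mk' (fun q => match q with
    | .a i => .r (ZMod.castHom hd (ZMod 2) i)
    | .xa i => .sr (ZMod.castHom hd (ZMod 2) i))
    (by
      have hn : ZMod.castHom hd (ZMod 2) ((2 ^ m : ℕ) : ZMod (2 * 2 ^ m)) = 0 := by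
        rw [map_natCast, ZMod.natCast_eq_zero_iff_even]
        exact (Nat.even_pow.2 ⟨even_two, by omega⟩)
      rintro (i | i) (j | j)
      · show DihedralGroup.r _ = DihedralGroup.r _ * DihedralGroup.r _
        rw [DihedralGroup.r_mul_r, map_add]
      · show DihedralGroup.sr _ = DihedralGroup.r _ * DihedralGroup.sr _
        rw [DihedralGroup.r_mul_sr, map_sub]
      · show DihedralGroup.sr _ = DihedralGroup.sr _ * DihedralGroup.r _
        rw [DihedralGroup.sr_mul_r, map_add]
      · show DihedralGroup.r _ = DihedralGroup.sr _ * DihedralGroup.sr _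
        rw [DihedralGroup.sr_mul_sr, map_sub, map_add, hn, zero_add])

theorem quatToFour_surjective (m : ℕ) (hm : 1 ≤ m) : Function.Surjective (quatToFour m hm) := by
  have hs : Function.Surjective (ZMod.castHom (dvd_mul_right 2 (2 ^ m)) (ZMod 2)) :=
    ZMod.ringHom_surjective _
  rintro (i | i)
  · obtain ⟨j, rfl⟩ := hs i; exact ⟨.a j, rfl⟩
  · obtain ⟨j, rfl⟩ := hs i; exact ⟨.xa j, rfl⟩

theorem quatToFour_ker (m : ℕ) (hm : 1 ≤ m) :
    (quatToFour m hm).ker ≤ Subgroup.zpowers (QuaternionGroup.a 1) := by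
  rintro (i | i) hi
  · exact ⟨(i.val : ℤ), by
      show QuaternionGroup.a (1 : ZMod (2 * 2 ^ m)) ^ (i.val : ℤ) = QuaternionGroup.a i
      rw [zpow_natCast, QuaternionGroup.a_one_pow, ZMod.natCast_zmod_val]⟩
  · exfalso
    have h1 : DihedralGroup.sr _ = (1 : DihedralGroup 2) := MonoidHom.mem_ker.1 hi
    rw [DihedralGroup.one_def] at h1
    cases h1

theorem isZGroup_of_sylow_two {H : Subgroup G} (hG : IsFpf G)
    (h2 : ∀ P : Sylow 2 H, IsCyclic (P : Subgroup H)) : IsZGroup H := by
  refine ⟨fun p hp P => ?_⟩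
  have := Fact.mk hp
  by_cases hp2 : p = 2
  · subst hp2; exact h2 P
  · exact (hG.subgroup H).isCyclic_odd hp2 _ P.2

/-- The five possible quotients by the maximal normal Z-subgroup. -/
def IsCoreQuotient (N : Subgroup G) : Prop :=
  (∃ f : G →* DihedralGroup 2, Function.Surjective f ∧ f.ker = N) ∨
  (∃ f : G →* alternatingGroup (Fin 4), Function.Surjective f ∧ f.ker = N) ∨
  (∃ f : G →* Equiv.Perm (Fin 4), Function.Surjective f ∧ f.ker = N) ∨
  (∃ f : G →* alternatingGroup (Fin 5), Function.Surjective f ∧ f.ker = N) ∨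
  (∃ f : G →* Equiv.Perm (Fin 5), Function.Surjective f ∧ f.ker = N)

/-- A group with an odd normal subgroup of 2-power index and noncyclic Sylow 2-subgroup. -/
theorem exists_four_quotient (hG : IsFpf G) (hZ : ¬ IsZGroup G) (O : Subgroup G) (hO : O.Normal)
    (hodd : Odd (Nat.card O)) (hidx : ∃ k, Nat.card G = 2 ^ k * Nat.card O) :
    ∃ N : Subgroup G, N.Normal ∧ IsZGroup N ∧ IsCoreQuotient N := by
  obtain ⟨k, hk⟩ := hidx
  let Q : Sylow 2 G := default
  obtain ⟨m, hm, ⟨e⟩⟩ : ∃ m, 1 ≤ m ∧ Nonempty ((Q : Subgroup G) ≃* QuaternionGroup (2 ^ m)) := by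
    refine (hG.cyclic_or_quaternion _ Q.2).resolve_left fun hc => hZ ⟨fun p hp P => ?_⟩
    have := Fact.mk hp
    by_cases hp2 : p = 2
    · subst hp2
      have := hc
      exact isCyclic_of_surjective _ (Q.equiv P).surjective
    · exact hG.isCyclic_odd hp2 _ P.2
  -- `Q` maps isomorphically onto `G ⧸ O`
  let π : (Q : Subgroup G) →* G ⧸ O := (QuotientGroup.mk' O).comp (Q : Subgroup G).subtype
  have hπinj : Function.Injective π := by
    rw [← MonoidHom.ker_eq_bot_iff, Subgroup.eq_bot_iff_forall]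
    intro x hx
    have hxO : (x : G) ∈ O := (QuotientGroup.eq_one_iff _).1 hx
    obtain ⟨l, hl⟩ := Q.2.exists_card_eq
    have h1 : orderOf (x : G) ∣ 2 ^ l := hl ▸ Subgroup.orderOf_dvd_natCard _ x.2
    have h2 : orderOf (x : G) ∣ Nat.card O := Subgroup.orderOf_dvd_natCard _ hxO
    refine Subtype.ext (orderOf_eq_one_iff.1 ?_)
    exact Nat.eq_one_of_dvd_coprimes ((Nat.coprime_two_left.2 hodd).pow_left l) h1 h2
  have hQcard : Nat.card (Q : Subgroup G) = Nat.card (G ⧸ O) := by
    have h1 := O.card_eq_card_quotient_mul_card_subgroup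
    rw [hk] at h1
    rw [← Nat.eq_of_mul_eq_mul_right Nat.card_pos h1, Q.card_eq_multiplicity, hk,
      Nat.factorization_mul (by positivity) Nat.card_pos.ne', Finsupp.add_apply,
      Nat.Prime.factorization_pow Nat.prime_two, Finsupp.single_eq_same,
      Nat.factorization_eq_zero_of_not_dvd fun hd => by
        obtain ⟨c, hc⟩ := hodd; omega, add_zero]
  let πe := MulEquiv.ofBijective π ((Nat.bijective_iff_injective_and_card π).2 ⟨hπinj, hQcard⟩)
  let g : G →* QuaternionGroup (2 ^ m) :=
    (e.toMonoidHom.comp πe.symm.toMonoidHom).comp (QuotientGroup.mk' O)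
  have hgsurj : Function.Surjective g :=
    (e.surjective.comp πe.symm.surjective).comp (QuotientGroup.mk'_surjective O)
  have hgker : g.ker = O := by
    ext x
    constructor
    · intro hx
      have : πe.symm (QuotientGroup.mk' O x) = 1 := e.injective (hx.trans (map_one e).symm)
      exact (QuotientGroup.eq_one_iff x).1 (πe.symm.injective (this.trans (map_one πe.symm).symm))
    · intro hx
      show e (πe.symm (QuotientGroup.mk' O x)) = 1
      rw [show QuotientGroup.mk' O x = 1 from (QuotientGroup.eq_one_iff x).2 hx, map_one, map_one]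
  let f : G →* DihedralGroup 2 := (quatToFour m hm).comp g
  refine ⟨f.ker, inferInstance, isZGroup_of_sylow_two hG fun P => ?_,
    Or.inl ⟨f, (quatToFour_surjective m hm).comp hgsurj, rfl⟩⟩
  let j : (P : Subgroup f.ker) →* Subgroup.zpowers (QuaternionGroup.a (1 : ZMod (2 * 2 ^ m))) :=
    (g.comp (f.ker.subtype.comp (P : Subgroup f.ker).subtype)).codRestrict _
      fun x => quatToFour_ker m hm (x : f.ker).2
  refine isCyclic_of_injective j ?_
  rw [← MonoidHom.ker_eq_bot_iff, Subgroup.eq_bot_iff_forall]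
  intro x hx
  have hxO : ((x : f.ker) : G) ∈ O := by
    rw [← hgker]; exact congrArg Subtype.val hx
  obtain ⟨l, hl⟩ := P.2.exists_card_eq
  have h1 : orderOf x ∣ 2 ^ l := hl ▸ orderOf_dvd_natCard x
  have h2 : orderOf ((x : f.ker) : G) ∣ Nat.card O := Subgroup.orderOf_dvd_natCard _ hxO
  rw [Subgroup.orderOf_coe, Subgroup.orderOf_coe] at h2
  exact orderOf_eq_one_iff.1
    (Nat.eq_one_of_dvd_coprimes ((Nat.coprime_two_left.2 hodd).pow_left l) h1 h2)

omit [Finite G] in
theorem q8_facts : (∀ q : QuaternionGroup 2, (∀ r, q * r = r * q) → q * q = 1) ∧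
    IsQPair (QuaternionGroup.a 1 : QuaternionGroup 2) (QuaternionGroup.xa 0) ∧
    Nat.card (QuaternionGroup 2) = 8 := by
  refine ⟨by decide +kernel, ⟨QuaternionGroup.orderOf_a_one, QuaternionGroup.orderOf_xa 0, ?_, ?_⟩, ?_⟩
  · show ¬ (_ * _ = _ * _); decide
  · decide
  · rw [Nat.card_eq_fintype_card, QuaternionGroup.card]

/-- Existence of the maximal normal Z-subgroup, solvable case. -/
theorem exists_core_of_solvable (hG : IsFpf G) [Group.IsSolvable G] :
    ∃ N : Subgroup G, N.Normal ∧ IsZGroup N ∧ (N = ⊤ ∨ IsCoreQuotient N) := by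
  by_cases hZ : IsZGroup G
  · exact ⟨⊤, inferInstance,
      IsZGroup.of_injective (f := (⊤ : Subgroup G).subtype) (Subgroup.subtype_injective _), Or.inl rfl⟩
  obtain ⟨d, ρ, hd, hρ⟩ := hG.exists_rep
  rcases Linear.normal_quaternion_or_cyclic hρ with ⟨P, hP, ⟨e⟩⟩ | ⟨A, hA, hAc, hle⟩
  · let C := Subgroup.centralizer (P : Set G)
    obtain ⟨hcen, hqp, hq8⟩ := q8_facts
    have hC : IsZGroup C := hG.isZGroup_of_no_pair C fun a ha b hb hp => by
      have h4 : ((e.symm (QuaternionGroup.a 1) : P) : G) ^ 4 = 1 := by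
        rw [← Subgroup.coe_pow, ← map_pow, ← hqp.1, pow_orderOf_eq_one, map_one, Subgroup.coe_one]
      have h2 := hG.sq_eq_one_of_centralize hp
        (Subgroup.mem_centralizer_iff.1 ha _ (e.symm (QuaternionGroup.a 1)).2)
        (Subgroup.mem_centralizer_iff.1 hb _ (e.symm (QuaternionGroup.a 1)).2) h4
      exact hqp.ne_one.1 (by
        rw [← e.symm.map_eq_one_iff, map_mul]; exact Subtype.ext h2)
    obtain ⟨S4⟩ := Cfsg.Agent.S3742.result
    let φ : G →* MulAut P := MulAut.conjNormal
    let f : G →* Equiv.Perm (Fin 4) := ((MulAut.congr e).trans S4).toMonoidHom.comp φ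
    have hker : f.ker = C := by
      ext g
      rw [MonoidHom.mem_ker, Subgroup.mem_centralizer_iff]
      constructor
      · intro hg a ha
        have h1 : φ g = 1 := ((MulAut.congr e).trans S4).injective (hg.trans (map_one _).symm)
        have h2 := congrArg Subtype.val (DFunLike.congr_fun h1 ⟨a, ha⟩)
        simp only [φ, MulAut.conjNormal_apply, MulAut.one_apply] at h2
        exact (mul_inv_eq_iff_eq_mul.1 h2).symm
      · intro hg
        have h1 : φ g = 1 := by
          ext ⟨a, ha⟩
          simp only [φ, MulAut.conjNormal_apply, MulAut.one_apply]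
          rw [← hg a ha, mul_inv_cancel_right]
        show ((MulAut.congr e).trans S4) (φ g) = 1
        rw [h1, map_one]
    have hr : Nat.card f.range = C.index := by rw [← Subgroup.index_ker, hker]
    have hrdvd : Nat.card f.range ∣ 24 := by
      have := Subgroup.card_subgroup_dvd_card f.range
      rwa [Nat.card_perm, Nat.card_fin] at this
    have h4 : 4 ∣ Nat.card f.range := by
      let fP : P →* Equiv.Perm (Fin 4) := f.comp P.subtype
      have hle' : fP.range ≤ f.range := by
        rintro _ ⟨x, rfl⟩; exact ⟨x, rfl⟩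
      refine dvd_trans ?_ (Subgroup.card_dvd_of_le hle')
      have hkP : ∀ x ∈ fP.ker, x * x = 1 := by
        intro x hx
        have hxC : (x : G) ∈ C := by rw [← hker]; exact hx
        have := hcen (e x) fun r => by
          rw [← e.apply_symm_apply r, ← map_mul, ← map_mul]
          exact congrArg e (Subtype.ext (Subgroup.mem_centralizer_iff.1 hxC _ (e.symm r).2).symm)
        rw [← map_mul, e.map_eq_one_iff] at this
        exact this
      have hk2 : Nat.card fP.ker ≤ 2 := by
        classical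
        let u : P := e.symm (QuaternionGroup.a 1 * QuaternionGroup.a 1)
        have hsub : ∀ x ∈ fP.ker, x = 1 ∨ x = u := fun x hx => by
          by_cases hx1 : x = 1
          · exact Or.inl hx1
          right
          have key : ∀ q : QuaternionGroup 2, q * q = 1 → q ≠ 1 →
              q = QuaternionGroup.a 1 * QuaternionGroup.a 1 := by decide +kernel
          rw [← e.symm_apply_apply x, key (e x) (by rw [← map_mul, hkP x hx, map_one])
            (fun e' => hx1 (e.injective (e'.trans (map_one e).symm)))]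
        calc Nat.card fP.ker = (fP.ker : Set P).ncard := Nat.card_coe_set_eq _
          _ ≤ ({1, u} : Set P).ncard := Set.ncard_le_ncard (fun x hx => hsub x hx) (Set.toFinite _)
          _ ≤ 2 := (Set.ncard_insert_le _ _).trans (by rw [Set.ncard_singleton])
      have h8 := fP.ker.card_mul_index
      rw [Subgroup.index_ker, Nat.card_congr e.toEquiv, hq8] at h8
      have hk0 : 0 < Nat.card fP.ker := Nat.card_pos
      interval_cases hh : Nat.card fP.ker <;> omega
    by_cases h3 : 3 ∣ Nat.card f.range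
    · refine ⟨C, inferInstance, hC, Or.inr ?_⟩
      obtain ⟨c, hc⟩ : 12 ∣ Nat.card f.range :=
        Nat.Coprime.mul_dvd_of_dvd_of_dvd (show Nat.Coprime 4 3 by norm_num) h4 h3
      have hc2 : c ∣ 2 := by
        rw [hc] at hrdvd
        exact Nat.dvd_of_mul_dvd_mul_left (show 0 < 12 by norm_num) hrdvd
      have hidx := f.range.card_mul_index
      rw [Nat.card_perm, Nat.card_fin, hc, show Nat.factorial 4 = 24 from rfl] at hidx
      rcases (Nat.dvd_prime Nat.prime_two).1 hc2 with rfl | rfl
      · right; left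
        have hA : f.range = alternatingGroup (Fin 4) :=
          Equiv.Perm.eq_alternatingGroup_of_index_eq_two (by omega)
        refine ⟨f.codRestrict (alternatingGroup (Fin 4))
          (fun x => by rw [← hA]; exact ⟨x, rfl⟩), fun a => ?_, ?_⟩
        · obtain ⟨x, hx⟩ : (a : Equiv.Perm (Fin 4)) ∈ f.range := by rw [hA]; exact a.2
          exact ⟨x, Subtype.ext hx⟩
        · rw [MonoidHom.ker_codRestrict, hker]
      · right; right; left
        exact ⟨f, MonoidHom.range_eq_top.1 (Subgroup.index_eq_one.1 (by omega)), hker⟩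
    · obtain ⟨O, hOn, hOC, hOo, k, hk⟩ :=
        exists_odd_complement C inferInstance (fun R => (inferInstance : IsCyclic R))
      obtain ⟨l, hl⟩ : ∃ l, C.index = 2 ^ l := by
        have h8 : Nat.card f.range ∣ 2 ^ 3 := by
          refine Nat.Coprime.dvd_of_dvd_mul_right
            (Nat.coprime_comm.1 (Nat.prime_three.coprime_iff_not_dvd.2 h3)) ?_
          exact hrdvd
        obtain ⟨l, -, hl⟩ := (Nat.dvd_prime_pow Nat.prime_two).1 h8
        exact ⟨l, hr.symm.trans hl⟩
      have hGk : ∃ j, Nat.card G = 2 ^ j * Nat.card O :=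
        ⟨l + k, by rw [pow_add, mul_assoc, ← hk, ← hl, mul_comm, C.card_mul_index]⟩
      obtain ⟨N, hN1, hN2, hN3⟩ := exists_four_quotient hG hZ O hOn hOo hGk
      exact ⟨N, hN1, hN2, Or.inr hN3⟩
  · obtain ⟨G₀, hn, hz, hi⟩ := Linear.zgroup_core_of_cyclic hρ A hle
    have hi2 : G₀.index = 2 := by
      have h0 : G₀.index ≠ 0 := Subgroup.index_ne_zero_of_finite
      by_contra hne
      apply hZ
      have h1 : G₀ = ⊤ := Subgroup.index_eq_one.1 (by omega)
      subst h1
      exact IsZGroup.of_injective (f := Subgroup.topEquiv.symm.toMonoidHom)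
        (by exact fun a b h => Subgroup.topEquiv.symm.injective h)
    obtain ⟨O, hOn, hOC, hOo, k, hk⟩ :=
      exists_odd_complement G₀ hn (fun R => (inferInstance : IsCyclic R))
    obtain ⟨N, hN1, hN2, hN3⟩ := exists_four_quotient hG hZ O hOn hOo
      ⟨1 + k, by rw [pow_add, mul_assoc, ← hk, pow_one, mul_comm, ← hi2, G₀.card_mul_index]⟩
    exact ⟨N, hN1, hN2, Or.inr hN3⟩

/-- The data of a nonsolvable fixed-point-free group. -/
theorem exists_core_data (hG : IsFpf G) (hns : ¬ Group.IsSolvable G) :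
    ∃ (E : Subgroup G) (f : G →* Equiv.Perm (Fin 5)), E.Normal ∧ Nonempty (E ≃* SL25) ∧
      f.ker = Subgroup.centralizer (E : Set G) ∧ IsZGroup f.ker ∧
      (∀ x ∈ E, x ∈ f.ker → x * x = 1) ∧ Nat.card (E ⊓ f.ker : Subgroup G) = 2 := by
  obtain ⟨E, hE, hp, ⟨e⟩⟩ := hG.exists_sl25 hns
  obtain ⟨f, hf⟩ := exists_five_action E e hE hp
  haveI : Nontrivial E := Finite.one_lt_card_iff_nontrivial.1 (by rw [card_core E e]; norm_num)
  have h : PerfectFpf E := ⟨hG.subgroup E, hp, inferInstance⟩
  have hsq : ∀ x ∈ E, x ∈ f.ker → x * x = 1 := by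
    intro x hx hxk
    have hc : (⟨x, hx⟩ : E) ∈ Subgroup.center E := Subgroup.mem_center_iff.2 fun g =>
      Subtype.ext (Subgroup.mem_centralizer_iff.1 (hf hxk) g g.2)
    exact congrArg Subtype.val (h.mem_center_iff.1 hc)
  have hCk : Subgroup.centralizer (E : Set G) ≤ f.ker := by
    -- the image of `E` is perfect and centralised by the image of the centraliser
    intro c hc
    let N : Subgroup E := f.ker.subgroupOf E
    rw [MonoidHom.mem_ker]
    by_contra hne
    have hinj : ∀ x : E, f x * f c = f c * f x := fun x => by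
      rw [← map_mul, ← map_mul, Subgroup.mem_centralizer_iff.1 hc x x.2]
    -- the image of `E` is the alternating group, whose centraliser is trivial
    have hA : ∀ s : alternatingGroup (Fin 5), ∃ x : E, f x = s := by
      intro s
      have hsgn : ∀ x : E, f x ∈ alternatingGroup (Fin 5) := fun x => by
        rw [Equiv.Perm.mem_alternatingGroup]
        exact eq_one_of_hom hp (Equiv.Perm.sign.comp (f.comp E.subtype)) x
      let ψ : E →* alternatingGroup (Fin 5) := (f.comp E.subtype).codRestrict _ hsgn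
      have hkc : Nat.card ψ.ker ≤ 2 := by
        classical
        obtain ⟨u, v, hp'⟩ := @PerfectFpf.exists_pair E _ (Fintype.ofFinite E) h
        calc Nat.card ψ.ker = (ψ.ker : Set E).ncard := Nat.card_coe_set_eq _
          _ ≤ ({1, u * u} : Set E).ncard := Set.ncard_le_ncard (fun x hx => by
              have hx' : (x : G) ∈ f.ker := congrArg Subtype.val hx
              exact h.eq_one_or_sq hp'.1 (Subtype.ext (hsq x x.2 hx'))) (Set.toFinite _)
          _ ≤ 2 := (Set.ncard_insert_le _ _).trans (by rw [Set.ncard_singleton])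
      have h120 := ψ.ker.card_mul_index
      rw [Subgroup.index_ker, card_core E e] at h120
      have hA60 : Nat.card (alternatingGroup (Fin 5)) = 60 := by
        rw [nat_card_alternatingGroup, Nat.card_fin]; decide
      have hrd : Nat.card ψ.range ≤ 60 := hA60 ▸ Subgroup.card_le_card_group ψ.range
      have hk0 : 0 < Nat.card ψ.ker := Nat.card_pos
      have hr60 : Nat.card ψ.range = 60 := by nlinarith
      have htop : ψ.range = ⊤ := Subgroup.eq_top_of_card_eq _ (hr60.trans hA60.symm)
      obtain ⟨x, hx⟩ : s ∈ ψ.range := by rw [htop]; trivial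
      exact ⟨x, congrArg Subtype.val hx⟩
    have key : ∀ p : Equiv.Perm (Fin 5),
        (Equiv.swap 0 1 * Equiv.swap 1 2) * p = p * (Equiv.swap 0 1 * Equiv.swap 1 2) →
        (Equiv.swap 0 1 * Equiv.swap 1 2 * Equiv.swap 2 3 * Equiv.swap 3 4) * p =
          p * (Equiv.swap 0 1 * Equiv.swap 1 2 * Equiv.swap 2 3 * Equiv.swap 3 4) → p = 1 := by
      decide +kernel
    obtain ⟨x, hx⟩ := hA ⟨Equiv.swap 0 1 * Equiv.swap 1 2,
      Equiv.Perm.mem_alternatingGroup.2 (by decide +kernel)⟩
    obtain ⟨y, hy⟩ := hA ⟨Equiv.swap 0 1 * Equiv.swap 1 2 * Equiv.swap 2 3 * Equiv.swap 3 4,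
      Equiv.Perm.mem_alternatingGroup.2 (by decide +kernel)⟩
    have h1 := hinj x
    have h2 := hinj y
    rw [hx] at h1
    rw [hy] at h2
    exact hne (key _ h1 h2)
  have hZ : IsZGroup f.ker := by
    have := isZGroup_centralizer_core hG E e
    exact IsZGroup.of_injective (f := Subgroup.inclusion hf) (Subgroup.inclusion_injective hf)
  refine ⟨E, f, hE, ⟨e⟩, le_antisymm hf hCk, hZ, hsq, ?_⟩
  classical
  obtain ⟨u, v, hp'⟩ := @PerfectFpf.exists_pair E _ (Fintype.ofFinite E) h
  have e1 : ((E ⊓ f.ker : Subgroup G) : Set G) = {1, ((u * u : E) : G)} := by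
    ext x
    constructor
    · rintro ⟨hx, hxk⟩
      rcases h.eq_one_or_sq hp'.1 (x := ⟨x, hx⟩) (Subtype.ext (hsq x hx hxk)) with h' | h'
      · exact Or.inl (congrArg Subtype.val h')
      · exact Or.inr (congrArg Subtype.val h')
    · rintro (rfl | rfl)
      · exact one_mem _
      · refine ⟨(u * u : E).2, hCk ?_⟩
        rw [Subgroup.mem_centralizer_iff]
        intro g hg
        exact congrArg Subtype.val
          (h.commute_of_sq_eq_one (sq_sq_of_orderOf_four hp'.1) ⟨g, hg⟩).symm.eq
  calc Nat.card (E ⊓ f.ker : Subgroup G) = ((E ⊓ f.ker : Subgroup G) : Set G).ncard :=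
        Nat.card_coe_set_eq _
    _ = 2 := by
      rw [e1, Set.ncard_pair]
      intro h'
      exact mul_self_ne_one_of_orderOf_four hp'.1 (Subtype.ext h'.symm)

end CfsgLib.Frobenius.Zass
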