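import Mathlib
import Cfsg.Agent.Frobenius.Zassenhaus.Structure

/-! # Uniqueness of the core quotient -/

set_option autoImplicit false

namespace CfsgLib.Frobenius.Zass

open CfsgLib.Frobenius

variable {G : Type*} [Group G] [Finite G]

/-- A Z-group has no two commuting involutions. -/
theorem involution_eq_of_isZGroup (K : Subgroup G) [IsZGroup K] {u v : G} (hu : u ∈ K) (hv : v ∈ K)
    (hu1 : u ≠ 1) (hv1 : v ≠ 1) (huu : u * u = 1) (hvv : v * v = 1) (h : u * v = v * u) : u = v := by
  classical
  by_contra hne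
  have hcl := Subgroup.isMulCommutative_closure (k := ({u, v} : Set G)) (by
    rintro _ (rfl | rfl) _ (rfl | rfl)
    · rfl
    · exact h
    · exact h.symm
    · rfl)
  set L := Subgroup.closure ({u, v} : Set G)
  have hLK : L ≤ K := (Subgroup.closure_le K).2 (Set.insert_subset hu (Set.singleton_subset_iff.2 hv))
  haveI : IsZGroup L :=
    IsZGroup.of_injective (f := Subgroup.inclusion hLK) (Subgroup.inclusion_injective hLK)
  letI : CommGroup L := { (inferInstance : Group L) with mul_comm := hcl.is_comm.comm }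
  haveI : IsCyclic L := inferInstance
  have := Fintype.ofFinite L
  let u' : L := ⟨u, Subgroup.subset_closure (Set.mem_insert _ _)⟩
  let v' : L := ⟨v, Subgroup.subset_closure (Set.mem_insert_of_mem _ rfl)⟩
  have hle := IsCyclic.card_pow_eq_one_le (α := L) (n := 2) two_pos
  have h3 : ({1, u', v'} : Finset L).card = 3 := Finset.card_eq_three.2
    ⟨_, _, _, fun e => hu1 (congrArg Subtype.val e).symm, fun e => hv1 (congrArg Subtype.val e).symm,
      fun e => hne (congrArg Subtype.val e), rfl⟩
  have hsub : ({1, u', v'} : Finset L) ⊆ Finset.univ.filter fun w : L => w ^ 2 = 1 := by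
    intro w hw
    simp only [Finset.mem_insert, Finset.mem_singleton] at hw
    refine Finset.mem_filter.2 ⟨Finset.mem_univ _, ?_⟩
    rcases hw with rfl | rfl | rfl
    · exact one_pow 2
    · exact Subtype.ext (by rw [pow_two]; exact huu)
    · exact Subtype.ext (by rw [pow_two]; exact hvv)
  have := (Finset.card_le_card hsub).trans hle
  omega

/-- Every normal Z-subgroup is trivial. -/
def NoZNormal (X : Type*) [Group X] : Prop := ∀ N : Subgroup X, N.Normal → IsZGroup N → N = ⊥

theorem noZNormal_of {X : Type*} [Group X] [Finite X]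
    (h1 : ∀ x : X, x ≠ 1 → ∃ g : X, x * (g * x⁻¹ * g⁻¹) ≠ 1 ∧
      (x * (g * x⁻¹ * g⁻¹) * (x * (g * x⁻¹ * g⁻¹)) = 1 ∨ ∃ k : X,
        let u := x * (g * x⁻¹ * g⁻¹)
        u * (k * u⁻¹ * k⁻¹) ≠ 1 ∧ u * (k * u⁻¹ * k⁻¹) * (u * (k * u⁻¹ * k⁻¹)) = 1))
    (h2 : ∀ u : X, u * u = 1 → u ≠ 1 → ∃ g : X, g * u * g⁻¹ ≠ u ∧ u * (g * u * g⁻¹) = g * u * g⁻¹ * u) :
    NoZNormal X := by
  intro N hN hZ
  rw [Subgroup.eq_bot_iff_forall]
  intro x hx
  by_contra hx1
  obtain ⟨u, hu, hu1, huu⟩ : ∃ u ∈ N, u ≠ 1 ∧ u * u = 1 := by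
    obtain ⟨g, ha1, ha | ⟨k, hb1, hb⟩⟩ := h1 x hx1
    · exact ⟨_, mul_mem hx (hN.conj_mem _ (inv_mem hx) g), ha1, ha⟩
    · have ha : x * (g * x⁻¹ * g⁻¹) ∈ N := mul_mem hx (hN.conj_mem _ (inv_mem hx) g)
      exact ⟨_, mul_mem ha (hN.conj_mem _ (inv_mem ha) k), hb1, hb⟩
  obtain ⟨k, hne, hcomm⟩ := h2 u huu hu1
  refine hne (involution_eq_of_isZGroup N hu (hN.conj_mem _ hu k) hu1 ?_ huu ?_ hcomm).symm
  · intro e
    exact hu1 (by rwa [conj_eq_one_iff] at e)
  · rw [show k * u * k⁻¹ * (k * u * k⁻¹) = k * (u * u) * k⁻¹ by group, huu, mul_one, mul_inv_cancel]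

theorem noZNormal_alt4 : NoZNormal (alternatingGroup (Fin 4)) :=
  noZNormal_of (by decide +kernel) (by decide +kernel)

theorem noZNormal_sym4 : NoZNormal (Equiv.Perm (Fin 4)) :=
  noZNormal_of (by decide +kernel) (by decide +kernel)

/-- The alternating group of degree five is no Z-group. -/
theorem not_isZGroup_of_alt5_le {N : Subgroup (Equiv.Perm (Fin 5))}
    (h : alternatingGroup (Fin 5) ≤ N) : ¬ IsZGroup N := fun hZ => by
  haveI := hZ
  exact absurd (involution_eq_of_isZGroup N (u := Equiv.swap 0 1 * Equiv.swap 2 3)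
    (v := Equiv.swap 0 2 * Equiv.swap 1 3) (h (Equiv.Perm.mem_alternatingGroup.2 (by decide))) (h (Equiv.Perm.mem_alternatingGroup.2 (by decide))) (by decide) (by decide)
    (by decide) (by decide) (by decide)) (by decide)

theorem noZNormal_alt5 : NoZNormal (alternatingGroup (Fin 5)) := by
  intro N hN hZ
  haveI := alternatingGroup.isSimpleGroup_five
  rcases hN.eq_bot_or_eq_top with h | h
  · exact h
  subst h
  exfalso
  haveI : IsZGroup (alternatingGroup (Fin 5)) :=
    IsZGroup.of_injective (f := Subgroup.topEquiv.symm.toMonoidHom)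
      (by exact fun a b h => Subgroup.topEquiv.symm.injective h)
  exact not_isZGroup_of_alt5_le (le_refl (alternatingGroup (Fin 5))) inferInstance

theorem noZNormal_sym5 : NoZNormal (Equiv.Perm (Fin 5)) := by
  intro N hN hZ
  haveI := hN
  haveI := alternatingGroup.isSimpleGroup_five
  rcases (Subgroup.Normal.subgroupOf hN (alternatingGroup (Fin 5))).eq_bot_or_eq_top with h | h
  swap
  · exact (not_isZGroup_of_alt5_le (Subgroup.subgroupOf_eq_top.1 h) hZ).elim
  rw [Subgroup.subgroupOf_eq_bot, disjoint_iff_inf_le] at h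
  rw [Subgroup.eq_bot_iff_forall]
  intro x hx
  have hc : ∀ g, x * (g * x⁻¹ * g⁻¹) = 1 := fun g => h ⟨mul_mem hx (hN.conj_mem _ (inv_mem hx) g), by
    show x * (g * x⁻¹ * g⁻¹) ∈ alternatingGroup (Fin 5)
    rw [Equiv.Perm.mem_alternatingGroup]
    rcases Int.units_eq_one_or (Equiv.Perm.sign x) with e | e <;> simp [e, mul_comm, mul_left_comm]⟩
  have key : ∀ y : Equiv.Perm (Fin 5), y * Equiv.swap 0 1 = Equiv.swap 0 1 * y →
      y * Equiv.swap 1 2 = Equiv.swap 1 2 * y → y * Equiv.swap 2 3 = Equiv.swap 2 3 * y →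
      y = 1 := by decide +kernel
  have hcomm : ∀ g, x * g = g * x := fun g => by
    have := hc g
    calc x * g = (x * (g * x⁻¹ * g⁻¹)) * g * x := by group
      _ = g * x := by rw [this, one_mul]
  exact key x (hcomm _) (hcomm _) (hcomm _)

/-- A Z-group does not map onto the Klein four-group. -/
theorem not_surjective_four [IsZGroup G] (f : G →* DihedralGroup 2) : ¬ Function.Surjective f := by
  intro hf
  haveI : IsZGroup (DihedralGroup 2) := IsZGroup.of_surjective hf
  haveI : IsZGroup (⊤ : Subgroup (DihedralGroup 2)) :=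
    IsZGroup.of_injective (f := (⊤ : Subgroup (DihedralGroup 2)).subtype) (Subgroup.subtype_injective _)
  exact absurd (involution_eq_of_isZGroup (⊤ : Subgroup (DihedralGroup 2)) (u := DihedralGroup.r 1)
    (v := DihedralGroup.sr 0) trivial trivial (by decide) (by decide) (by decide) (by decide) (by decide))
    (by decide)

/-- A normal subgroup with trivial or non-abelian core quotient. -/
def IsBigCore (N : Subgroup G) : Prop :=
  ∀ N' : Subgroup G, N'.Normal → IsZGroup N' → N' ≤ N

theorem isBigCore_ker {X : Type*} [Group X] (hX : NoZNormal X) (f : G →* X)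
    (hf : Function.Surjective f) : IsBigCore f.ker := by
  intro N' hN' hZ'
  have h1 : IsZGroup (N'.map f) := IsZGroup.of_surjective (f.subgroupMap_surjective N')
  rw [← Subgroup.map_eq_bot_iff]
  exact hX _ (hN'.map f hf) h1

theorem four_quotient_unique (hG : IsFpf G) (f f' : G →* DihedralGroup 2)
    (hf : Function.Surjective f) (hf' : Function.Surjective f') : f.ker = f'.ker := by
  classical
  let φ := (f.prod f').rangeRestrict
  have hφ : Function.Surjective φ := (f.prod f').rangeRestrict_surjective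
  have hX : IsPGroup 2 (f.prod f').range := by
    intro x
    refine ⟨1, Subtype.ext ?_⟩
    have key : ∀ y : DihedralGroup 2, y * y = 1 := by decide
    rw [pow_one, pow_two]
    exact Prod.ext (key _) (key _)
  let Q : Sylow 2 G := default
  have hQtop : ∀ x, ∃ q : (Q : Subgroup G), φ q = x := by
    intro x
    let P := Q.mapSurjective hφ
    have hP : ((Q : Subgroup G).map φ) = ⊤ :=
      (P.is_maximal' (Q := ⊤) (hX.to_subgroup ⊤) le_top).symm
    obtain ⟨q, hq, rfl⟩ : x ∈ (Q : Subgroup G).map φ := by rw [hP]; trivial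
    exact ⟨⟨q, hq⟩, rfl⟩
  have hsq : ∀ x : (f.prod f').range, x * x = 1 := by
    intro x
    have key : ∀ y : DihedralGroup 2, y * y = 1 := by decide
    exact Subtype.ext (Prod.ext (key _) (key _))
  have hle : Nat.card (f.prod f').range ≤ 4 := by
    rcases hG.cyclic_or_quaternion (Q : Subgroup G) Q.2 with hc | ⟨m, -, ⟨e⟩⟩
    · exfalso
      obtain ⟨g, hg⟩ := hc.exists_generator
      have : ∀ x : (f.prod f').range, x = 1 ∨ x = φ g := by
        intro x
        obtain ⟨q, rfl⟩ := hQtop x
        obtain ⟨i, rfl⟩ := hg q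
        rcases Int.even_or_odd i with ⟨j, rfl⟩ | ⟨j, rfl⟩
        · left; rw [Subgroup.coe_zpow, map_zpow, zpow_add, hsq]
        · right; rw [Subgroup.coe_zpow, map_zpow, zpow_add_one, two_mul, zpow_add, hsq, one_mul]
      obtain ⟨a, ha⟩ := hf (DihedralGroup.r 1)
      obtain ⟨b, hb⟩ := hf (DihedralGroup.sr 0)
      have h1 : ∀ c, f c ≠ 1 → φ c = φ g := fun c hc' => (this (φ c)).resolve_left fun e =>
        hc' (congrArg (fun y : (f.prod f').range => y.1.1) e)
      have h2 : φ a = φ b := (h1 a (by rw [ha]; decide)).trans (h1 b (by rw [hb]; decide)).symm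
      have h3 : f a = f b := congrArg (fun y : (f.prod f').range => y.1.1) h2
      rw [ha, hb] at h3
      exact absurd h3 (by decide)
    · let ψ : QuaternionGroup (2 ^ m) →* (f.prod f').range :=
        φ.comp ((Q : Subgroup G).subtype.comp e.symm.toMonoidHom)
      have hpow : ∀ i : ℕ, ψ (QuaternionGroup.a 1) ^ i = 1 ∨
          ψ (QuaternionGroup.a 1) ^ i = ψ (QuaternionGroup.a 1) := by
        intro i
        induction i with
        | zero => left; rw [pow_zero]
        | succ i ih =>
          rcases ih with h | h <;> rw [pow_succ, h]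
          · right; rw [one_mul]
          · left; exact hsq _
      have ha : ∀ i, ψ (QuaternionGroup.a i) = 1 ∨
          ψ (QuaternionGroup.a i) = ψ (QuaternionGroup.a 1) := by
        intro i
        have h := hpow i.val
        rwa [← map_pow, QuaternionGroup.a_one_pow, ZMod.natCast_zmod_val] at h
      have hall : ∀ x, x ∈ ({1, ψ (QuaternionGroup.a 1), ψ (QuaternionGroup.xa 0),
          ψ (QuaternionGroup.xa 0) * ψ (QuaternionGroup.a 1)} : Set (f.prod f').range) := by
        intro x
        obtain ⟨q, hq⟩ := hQtop x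
        have hx : x = ψ (e q) := by
          rw [← hq]
          show φ (q : G) = φ ((e.symm (e q) : (Q : Subgroup G)) : G)
          rw [e.symm_apply_apply]
        rw [hx]
        cases e q with
        | a i => rcases ha i with h | h <;> rw [h] <;> simp
        | xa i =>
          rw [show QuaternionGroup.xa i = QuaternionGroup.xa 0 * QuaternionGroup.a i by
            rw [QuaternionGroup.xa_mul_a, zero_add], map_mul]
          rcases ha i with h | h <;> rw [h] <;> simp
      calc Nat.card (f.prod f').range = (Set.univ : Set (f.prod f').range).ncard :=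
            (Set.ncard_univ _).symm
        _ ≤ _ := Set.ncard_le_ncard (fun x _ => hall x) (Set.toFinite _)
        _ ≤ 4 := by
          refine (Set.ncard_insert_le _ _).trans (Nat.succ_le_succ ?_)
          refine (Set.ncard_insert_le _ _).trans (Nat.succ_le_succ ?_)
          refine (Set.ncard_insert_le _ _).trans (Nat.succ_le_succ ?_)
          rw [Set.ncard_singleton]
  have key : ∀ (g : G →* DihedralGroup 2), Function.Surjective g →
      (f.prod f').ker ≤ g.ker → g.ker = (f.prod f').ker := by
    intro g hg hle'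
    symm
    have h1 : g.ker.index = 4 := by
      rw [Subgroup.index_ker, MonoidHom.range_eq_top.2 hg, Subgroup.card_top,
        DihedralGroup.nat_card]
    have h2 : (f.prod f').ker.index ≤ 4 := by rw [Subgroup.index_ker]; exact hle
    refine Subgroup.eq_of_le_of_card_ge hle' ?_
    have h3 := g.ker.card_mul_index
    have h4 := (f.prod f').ker.card_mul_index
    rw [h1] at h3
    by_contra hlt
    have : Nat.card (f.prod f').ker * (f.prod f').ker.index < Nat.card g.ker * 4 :=
      Nat.mul_lt_mul_of_lt_of_le (by omega) h2 (by norm_num)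
    omega
  rw [key f hf fun x hx => congrArg Prod.fst hx, key f' hf' fun x hx => congrArg Prod.snd hx]

/-- The image of a nonsolvable fixed-point-free group on five points. -/
theorem range_core_data {E : Subgroup G} (e : E ≃* SL25) (f : G →* Equiv.Perm (Fin 5))
    (h2 : Nat.card (E ⊓ f.ker : Subgroup G) = 2) :
    (f.range = alternatingGroup (Fin 5) ∧ f.ker.index = 60) ∨ (f.range = ⊤ ∧ f.ker.index = 120) := by
  have h60 : f.ker.relIndex E = 60 := by
    have h := (f.ker.subgroupOf E).card_mul_index
    rw [card_core E e, ← Subgroup.inf_subgroupOf_right,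
      Nat.card_congr (Subgroup.subgroupOfEquivOfLe inf_le_right).toEquiv, inf_comm, h2,
      Subgroup.inf_subgroupOf_left] at h
    show (f.ker.subgroupOf E).index = 60
    omega
  have hdvd : 60 ∣ f.ker.index := h60 ▸ Subgroup.relIndex_dvd_index_of_normal f.ker E
  have h120 : Nat.card (Equiv.Perm (Fin 5)) = 120 := by
    rw [Nat.card_perm, Nat.card_fin]; rfl
  have hr := f.range.card_mul_index
  have hi : f.ker.index = Nat.card f.range := Subgroup.index_ker f
  rw [h120, ← hi] at hr
  obtain ⟨c, hc⟩ := hdvd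
  rw [hc, mul_assoc] at hr
  have hc2 : c * f.range.index = 2 := by omega
  rcases (Nat.dvd_prime Nat.prime_two).1 (Dvd.intro _ hc2) with rfl | rfl
  · exact Or.inl ⟨Equiv.Perm.eq_alternatingGroup_of_index_eq_two (by omega), by omega⟩
  · exact Or.inr ⟨Subgroup.index_eq_one.1 (by omega), by omega⟩

/-- The trivial or non-Klein alternatives. -/
def IsCoreAlt (N : Subgroup G) : Prop := N = ⊤ ∨ IsCoreQuotient N

theorem exists_core (hG : IsFpf G) : ∃ N : Subgroup G, N.Normal ∧ IsZGroup N ∧ IsCoreAlt N := by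
  by_cases hs : Group.IsSolvable G
  · exact exists_core_of_solvable hG
  obtain ⟨E, f, -, ⟨e⟩, -, hZ, -, h2⟩ := exists_core_data hG hs
  refine ⟨f.ker, inferInstance, hZ, Or.inr ?_⟩
  rcases range_core_data e f h2 with ⟨hA, -⟩ | ⟨hT, -⟩
  · refine Or.inr (Or.inr (Or.inr (Or.inl ⟨f.codRestrict (alternatingGroup (Fin 5))
      (fun x => by rw [← hA]; exact ⟨x, rfl⟩), fun a => ?_, ?_⟩)))
    · obtain ⟨x, hx⟩ : (a : Equiv.Perm (Fin 5)) ∈ f.range := by rw [hA]; exact a.2
      exact ⟨x, Subtype.ext hx⟩
    · rw [MonoidHom.ker_codRestrict]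
  · exact Or.inr (Or.inr (Or.inr (Or.inr ⟨f, MonoidHom.range_eq_top.1 hT, rfl⟩)))

theorem index_ker_of_surjective {X : Type*} [Group X] (f : G →* X) (hf : Function.Surjective f) :
    f.ker.index = Nat.card X := by
  rw [Subgroup.index_ker, MonoidHom.range_eq_top.2 hf, Subgroup.card_top]

theorem core_big_or_four {N : Subgroup G} (h : IsCoreAlt N) :
    (IsBigCore N ∧ N.index ≠ 4 ∧ (N.index = 1 ∨ 4 < N.index)) ∨
      ∃ f : G →* DihedralGroup 2, Function.Surjective f ∧ f.ker = N := by
  rcases h with rfl | h | ⟨f, hf, rfl⟩ | ⟨f, hf, rfl⟩ | ⟨f, hf, rfl⟩ | ⟨f, hf, rfl⟩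
  · exact Or.inl ⟨fun N' _ _ => le_top, by rw [Subgroup.index_top]; decide, Or.inl Subgroup.index_top⟩
  · exact Or.inr h
  all_goals left
  · refine ⟨isBigCore_ker noZNormal_alt4 f hf, ?_⟩
    rw [index_ker_of_surjective f hf, nat_card_alternatingGroup, Nat.card_fin]
    decide
  · refine ⟨isBigCore_ker noZNormal_sym4 f hf, ?_⟩
    rw [index_ker_of_surjective f hf, Nat.card_perm, Nat.card_fin]
    decide
  · refine ⟨isBigCore_ker noZNormal_alt5 f hf, ?_⟩
    rw [index_ker_of_surjective f hf, nat_card_alternatingGroup, Nat.card_fin]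
    decide
  · refine ⟨isBigCore_ker noZNormal_sym5 f hf, ?_⟩
    rw [index_ker_of_surjective f hf, Nat.card_perm, Nat.card_fin]
    decide

theorem core_unique (hG : IsFpf G) {N N' : Subgroup G} (hn : N.Normal) (hn' : N'.Normal)
    (hz : IsZGroup N) (hz' : IsZGroup N') (h : IsCoreAlt N) (h' : IsCoreAlt N') : N = N' := by
  have key : ∀ {A : Subgroup G}, IsZGroup A → IsBigCore A → (A.index = 1 ∨ 4 < A.index) →
      ∀ f : G →* DihedralGroup 2, Function.Surjective f → IsZGroup f.ker → False := by
    intro A hzA hA hi f hf hzf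
    have hle : f.ker ≤ A := hA _ inferInstance hzf
    have h4 : f.ker.index = 4 := by rw [index_ker_of_surjective f hf, DihedralGroup.nat_card]
    rcases hi with h1 | h1
    · rw [Subgroup.index_eq_one] at h1
      subst h1
      haveI : IsZGroup G := IsZGroup.of_injective (f := Subgroup.topEquiv.symm.toMonoidHom)
        (by exact fun a b h => Subgroup.topEquiv.symm.injective h)
      exact not_surjective_four f hf
    · have h2 := Subgroup.index_dvd_of_le hle
      rw [h4] at h2
      have := Nat.le_of_dvd (by norm_num) h2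
      omega
  rcases core_big_or_four h with ⟨hb, -, hi⟩ | ⟨f, hf, rfl⟩ <;>
    rcases core_big_or_four h' with ⟨hb', -, hi'⟩ | ⟨f', hf', rfl⟩
  · exact le_antisymm (hb' N hn hz) (hb N' hn' hz')
  · exact (key hz hb hi f' hf' hz').elim
  · exact (key hz' hb' hi' f hf hz).elim
  · exact four_quotient_unique hG f f' hf hf'

end CfsgLib.Frobenius.Zass
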