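import Mathlib
import Cfsg.Agent.Frobenius.Zassenhaus.Unique

/-! # Structure of nonsolvable fixed-point-free groups -/

set_option autoImplicit false

namespace CfsgLib.Frobenius.Zass

open CfsgLib.Frobenius

variable {G : Type*} [Group G] [Finite G]

/-- If the five-point image is the whole symmetric group, an element of order five is conjugate
to its square. -/
theorem exists_squaring {E : Subgroup G} [E.Normal] (e : E ≃* SL25) (f : G →* Equiv.Perm (Fin 5))
    (h2 : Nat.card (E ⊓ f.ker : Subgroup G) = 2) (hT : f.range = ⊤) :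
    ∃ c h : G, orderOf c = 5 ∧ h * c * h⁻¹ = c ^ 2 := by
  have := Fact.mk Nat.prime_five
  obtain ⟨b, hb⟩ := exists_prime_orderOf_dvd_card' (G := E) 5 (by rw [card_core E e]; norm_num)
  have hb5 : (b : G) ^ 5 = 1 := by
    rw [← Subgroup.coe_pow, ← hb, pow_orderOf_eq_one, Subgroup.coe_one]
  have hs5 : f b ^ 5 = 1 := by rw [← map_pow, hb5, map_one]
  have hs1 : f b ≠ 1 := by
    intro hh
    have h1 : (b : G) ∈ E ⊓ f.ker := ⟨b.2, hh⟩
    have h3 := Subgroup.orderOf_dvd_natCard _ h1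
    rw [h2, Subgroup.orderOf_coe, hb] at h3
    norm_num at h3
  have key : ∀ s : Equiv.Perm (Fin 5), s ^ 5 = 1 → s ≠ 1 →
      ∃ t : Equiv.Perm (Fin 5), t * s * t⁻¹ = s ^ 2 := by decide +kernel
  obtain ⟨t, ht⟩ := key _ hs5 hs1
  obtain ⟨g, rfl⟩ : ∃ g, f g = t := MonoidHom.range_eq_top.1 hT t
  refine ⟨b, g, by rw [Subgroup.orderOf_coe, hb], ?_⟩
  set z := g * (b : G) * g⁻¹ * ((b : G) ^ 2)⁻¹ with hz
  have hgE : g * (b : G) * g⁻¹ ∈ E := (inferInstance : E.Normal).conj_mem _ b.2 g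
  have hzm : z ∈ E ⊓ f.ker := by
    refine Subgroup.mem_inf.2 ⟨mul_mem hgE (inv_mem (pow_mem b.2 2)), ?_⟩
    show f z = 1
    rw [hz, map_mul, map_mul, map_mul, map_inv, map_inv, map_pow, ht, mul_inv_cancel]
  have hz2 : z ^ 2 = 1 :=
    orderOf_dvd_iff_pow_eq_one.1 (h2 ▸ Subgroup.orderOf_dvd_natCard _ hzm)
  have hzc : Commute z (b : G) := by
    by_cases hz1 : z = 1
    · rw [hz1]; exact Commute.one_left _
    -- the unique involution of the intersection is normalised by `b`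
    have hset : ∀ w ∈ E ⊓ f.ker, w = 1 ∨ w = z := by
      intro w hw
      by_contra! hne
      have h3 : ({1, z, w} : Set G).ncard ≤ ((E ⊓ f.ker : Subgroup G) : Set G).ncard :=
        Set.ncard_le_ncard (by rintro x (rfl | rfl | rfl) <;> [exact one_mem _; exact hzm; exact hw])
          (Set.toFinite _)
      rw [Set.ncard_eq_three.2 ⟨1, z, w, Ne.symm hz1, Ne.symm hne.1, Ne.symm hne.2, rfl⟩,
        ← Nat.card_coe_set_eq, SetLike.coe_sort_coe, h2] at h3
      omega
    have hn : (b : G) * z * (b : G)⁻¹ ∈ E ⊓ f.ker := (inferInstance : (E ⊓ f.ker).Normal).conj_mem _ hzm b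
    rcases hset _ hn with h4 | h4
    · exact absurd (conj_eq_one_iff.1 h4) hz1
    · exact (mul_inv_eq_iff_eq_mul.1 h4).symm
  have e1 : g * (b : G) * g⁻¹ = z * (b : G) ^ 2 := by rw [hz, inv_mul_cancel_right]
  have e2 : (g * (b : G) * g⁻¹) ^ 5 = 1 := by rw [conj_pow, hb5, mul_one, mul_inv_cancel]
  rw [e1, (hzc.pow_right 2).mul_pow, ← pow_mul, mul_comm 2 5, pow_mul, hb5, one_pow, mul_one,
    show z ^ 5 = (z ^ 2) ^ 2 * z by rw [← pow_mul, ← pow_succ], hz2, one_pow, one_mul] at e2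
  rw [e1, e2, one_mul]

theorem exists_nonsolvable_structure' (hG : IsFpf G) (hns : ¬ Group.IsSolvable G) :
    ∃ G₀ : Subgroup G, G₀.Normal ∧ (G₀.index = 1 ∨
      (G₀.index = 2 ∧ ∃ c h : G, orderOf c = 5 ∧ h * c * h⁻¹ = c ^ 2)) ∧
      ∃ S M : Subgroup G, S ⊔ M = G₀ ∧ S ⊓ M = ⊥ ∧ (∀ s ∈ S, ∀ x ∈ M, s * x = x * s) ∧
        Nonempty (S ≃* SL25) ∧ IsZGroup M ∧ (Nat.card M).Coprime 30 := by
  classical
  obtain ⟨E, f, hE, ⟨e⟩, hker, hZ, -, h2⟩ := exists_core_data hG hns
  haveI := hZ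
  obtain ⟨M, hMn, hMC, hMo, k, hk⟩ :=
    exists_odd_complement f.ker inferInstance (fun R => (inferInstance : IsCyclic R))
  have hcomm : ∀ s ∈ E, ∀ x ∈ f.ker, s * x = x * s := fun s hs x hx =>
    Subgroup.mem_centralizer_iff.1 (hker ▸ hx) s hs
  have hk1 : k = 1 := by
    rcases Nat.lt_or_ge k 2 with h | h
    · rcases Nat.lt_or_ge k 1 with h' | h'
      · exfalso
        have hd : Nat.card (E ⊓ f.ker : Subgroup G) ∣ Nat.card f.ker :=
          Subgroup.card_dvd_of_le inf_le_right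
        rw [h2, hk, show k = 0 by omega, pow_zero, one_mul] at hd
        exact Nat.two_dvd_ne_zero.2 (Nat.odd_iff.1 hMo) hd
      · omega
    · exfalso
      obtain ⟨L, hL⟩ := Sylow.exists_subgroup_card_pow_prime 2 (n := 2)
        (hk ▸ dvd_mul_of_dvd_left (pow_dvd_pow 2 h) _ : 2 ^ 2 ∣ Nat.card f.ker)
      obtain ⟨P, hP⟩ := (IsPGroup.of_card hL).exists_le_sylow
      haveI : IsCyclic L :=
        isCyclic_of_injective (Subgroup.inclusion hP) (Subgroup.inclusion_injective hP)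
      obtain ⟨t, ht⟩ := IsCyclic.exists_ofOrder_eq_natCard (α := L)
      rw [hL] at ht
      have hE' : PerfectFpf E := by
        haveI : Nontrivial E := Finite.one_lt_card_iff_nontrivial.1 (by rw [card_core E e]; norm_num)
        exact ⟨hG.subgroup E, commutator_sl25_iso E e commutator_sl25, inferInstance⟩
      obtain ⟨u, v, hp⟩ := @PerfectFpf.exists_pair E _ (Fintype.ofFinite E) hE'
      have ht4 : ((t : f.ker) : G) ^ 4 = 1 := by
        rw [← Subgroup.coe_pow, ← Subgroup.coe_pow,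
          show (4 : ℕ) = orderOf t by rw [ht]; norm_num, pow_orderOf_eq_one]
        rfl
      have hp' : IsQPair (u : G) (v : G) := by
        refine ⟨by rw [Subgroup.orderOf_coe]; exact hp.1, by rw [Subgroup.orderOf_coe]; exact hp.2.1,
          fun hc => hp.2.2.1 (Subtype.ext hc), ?_⟩
        exact congrArg Subtype.val hp.2.2.2
      have h3 := hG.sq_eq_one_of_centralize hp' (hcomm _ u.2 _ (t : f.ker).2).symm
        (hcomm _ v.2 _ (t : f.ker).2).symm ht4
      have h4 : orderOf ((t : f.ker) : G) = 4 := by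
        rw [Subgroup.orderOf_coe, Subgroup.orderOf_coe, ht]; norm_num
      exact mul_self_ne_one_of_orderOf_four h4 h3
  subst hk1
  have hEM : E ⊓ M = ⊥ := by
    refine Subgroup.eq_bot_of_card_eq _ (Nat.eq_one_of_dvd_coprimes
      (Nat.coprime_two_left.2 hMo) ?_ (Subgroup.card_dvd_of_le inf_le_right))
    rw [← h2]
    exact Subgroup.card_dvd_of_le (inf_le_inf_left E hMC)
  have hcm : ∀ s ∈ E, ∀ x ∈ M, s * x = x * s := fun s hs x hx => hcomm s hs x (hMC hx)
  have hcard : Nat.card (E ⊔ M : Subgroup G) = 120 * Nat.card M := by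
    have hinj := Subgroup.mul_injective_of_disjoint (disjoint_iff.2 hEM)
    have hrange : Set.range (fun g : E × M => (g.1 : G) * g.2) = ((E ⊔ M : Subgroup G) : Set G) := by
      rw [Subgroup.normal_mul]
      ext x
      constructor
      · rintro ⟨⟨a, b⟩, rfl⟩; exact Set.mul_mem_mul a.2 b.2
      · rintro ⟨a, ha, b, hb, rfl⟩; exact ⟨⟨⟨a, ha⟩, ⟨b, hb⟩⟩, rfl⟩
    calc Nat.card (E ⊔ M : Subgroup G)
        = Nat.card (Set.range (fun g : E × M => (g.1 : G) * g.2)) := by rw [hrange]; rfl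
      _ = Nat.card (E × M) := Nat.card_range_of_injective hinj
      _ = 120 * Nat.card M := by rw [Nat.card_prod, card_core E e]
  refine ⟨E ⊔ M, inferInstance, ?_, E, M, rfl, hEM, hcm, ⟨e⟩, ?_, ?_⟩
  · have h1 := (E ⊔ M).card_mul_index
    rw [← f.ker.card_mul_index, hk, hcard] at h1
    have hM0 : 0 < Nat.card M := Nat.card_pos
    rcases range_core_data e f h2 with ⟨-, hi⟩ | ⟨hT, hi⟩ <;> rw [hi] at h1
    · left; nlinarith
    · right; exact ⟨by nlinarith, exists_squaring e f h2 hT⟩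
  · exact IsZGroup.of_injective (f := Subgroup.inclusion hMC) (Subgroup.inclusion_injective hMC)
  · have key : ∀ q : ℕ, q.Prime → q ∣ 120 → q ≠ 2 → ¬ q ∣ Nat.card M := by
      intro q hq hq120 hq2 hdvd
      haveI := Fact.mk hq
      obtain ⟨a, ha⟩ := exists_prime_orderOf_dvd_card' q hdvd
      obtain ⟨b, hb⟩ := exists_prime_orderOf_dvd_card' (G := E) q (card_core E e ▸ hq120)
      have h := hG.zpowers_eq_of_commute hq (a := (b : G)) (b := (a : G))
        (by rw [Subgroup.orderOf_coe]; exact hb) (by rw [Subgroup.orderOf_coe]; exact ha)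
        (hcm _ b.2 _ a.2)
      have haE : (a : G) ∈ E := by
        have h' : (a : G) ∈ Subgroup.zpowers (b : G) := h ▸ Subgroup.mem_zpowers _
        exact (Subgroup.zpowers_le.2 b.2) h'
      have ha1 : a = 1 := by
        have h' : (a : G) ∈ E ⊓ M := ⟨haE, a.2⟩
        rw [hEM, Subgroup.mem_bot] at h'
        exact Subtype.ext h'
      rw [ha1, orderOf_one] at ha
      exact hq.ne_one ha.symm
    rw [show 30 = 2 * 3 * 5 from rfl]
    exact Nat.Coprime.mul_right (Nat.Coprime.mul_right (Nat.coprime_two_right.2 hMo)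
      (Nat.coprime_comm.1 (Nat.prime_three.coprime_iff_not_dvd.2
        (key 3 Nat.prime_three (by norm_num) (by norm_num)))))
      (Nat.coprime_comm.1 (Nat.prime_five.coprime_iff_not_dvd.2
        (key 5 Nat.prime_five (by norm_num) (by norm_num))))

theorem exists_nonsolvable_structure (hG : IsFpf G) (hns : ¬ Group.IsSolvable G) :
    ∃ G₀ : Subgroup G, G₀.Normal ∧ (G₀.index = 1 ∨ G₀.index = 2) ∧
      ∃ S M : Subgroup G, S ⊔ M = G₀ ∧ S ⊓ M = ⊥ ∧ (∀ s ∈ S, ∀ x ∈ M, s * x = x * s) ∧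
        Nonempty (S ≃* SL25) ∧ IsZGroup M ∧ (Nat.card M).Coprime 30 := by
  obtain ⟨G₀, hn, hi, h⟩ := exists_nonsolvable_structure' hG hns
  exact ⟨G₀, hn, hi.imp_right And.left, h⟩

end CfsgLib.Frobenius.Zass
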