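import Mathlib
import Cfsg.Agent.Frobenius.Zassenhaus.Structure

/-! # Minimal non-abelian normal subgroups of fixed-point-free groups -/

set_option autoImplicit false

namespace CfsgLib.Frobenius.Zass

open CfsgLib.Frobenius
open scoped commutatorElement

variable {H : Type*} [Group H] [Finite H]

theorem commutator_le_of_min (A N : Subgroup H) [hAn : A.Normal] [hNn : N.Normal]
    (hAc : IsMulCommutative A)
    (hAmax : ∀ B : Subgroup H, B.Normal → IsMulCommutative B → A ≤ B → B = A)
    (hNle : N ≤ Subgroup.centralizer (A : Set H))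
    (hcom : IsMulCommutative (⁅N, N⁆ : Subgroup H)) : ⁅N, N⁆ ≤ A := by
  set D : Subgroup H := ⁅N, N⁆
  have hDN : D ≤ N := Subgroup.commutator_le_self N
  have hDn : D.Normal := Subgroup.commutator_normal N N
  have hB : IsMulCommutative (A ⊔ D : Subgroup H) := by
    refine ⟨⟨fun u v => Subtype.ext ?_⟩⟩
    obtain ⟨a, ha, d, hd, hu⟩ := Subgroup.mem_sup_of_normal_left.1 u.2
    obtain ⟨b, hb, e, he, hv⟩ := Subgroup.mem_sup_of_normal_left.1 v.2
    have h1 : Commute d b := (Subgroup.mem_centralizer_iff.1 (hNle (hDN hd)) b hb).symm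
    have h2 : Commute a e := Subgroup.mem_centralizer_iff.1 (hNle (hDN he)) a ha
    have h3 : Commute a b := congrArg Subtype.val (hAc.is_comm.comm ⟨a, ha⟩ ⟨b, hb⟩)
    have h4 : Commute d e := congrArg Subtype.val (hcom.is_comm.comm ⟨d, hd⟩ ⟨e, he⟩)
    show (u : H) * v = v * u
    rw [← hu, ← hv]
    exact ((h3.mul_right h2).mul_left (h1.mul_right h4)).eq
  exact le_sup_right.trans (hAmax _ (Subgroup.sup_normal A D) hB le_sup_left).le

theorem minimal_nonabelian (hH : IsFpf H) (A N : Subgroup H) [hAn : A.Normal] [hNn : N.Normal]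
    (hAc : IsMulCommutative A)
    (hAmax : ∀ B : Subgroup H, B.Normal → IsMulCommutative B → A ≤ B → B = A)
    (hNle : N ≤ Subgroup.centralizer (A : Set H)) (hNna : ¬ IsMulCommutative N)
    (hNmin : ∀ M : Subgroup H, M.Normal → M ≤ N → ¬ IsMulCommutative M → M = N) :
    Nonempty (N ≃* QuaternionGroup 2) ∨ Nonempty (N ≃* SL25) := by
  by_cases hs : Group.IsSolvable N
  swap
  · obtain ⟨n, hn⟩ : ∃ n, derivedSeries N (n + 1) = derivedSeries N n := by
      classical
      have hex : ∃ c, ∃ n, Nat.card (derivedSeries N n) = c := ⟨_, 0, rfl⟩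
      obtain ⟨n, hn⟩ := Nat.find_spec hex
      exact ⟨n, Subgroup.eq_of_le_of_card_ge (derivedSeries_antitone N (Nat.le_succ n))
        (hn ▸ Nat.find_min' hex ⟨n + 1, rfl⟩)⟩
    set E := derivedSeries N n with hE
    haveI : E.Characteristic := derivedSeries_characteristic N n
    set M := E.map N.subtype with hM
    have hMn : M.Normal := ConjAct.normal_of_characteristic_of_normal
    have hEp : commutator E = ⊤ := by
      apply Subgroup.map_injective E.subtype_injective
      rw [Subgroup.map_subtype_commutator, ← derivedSeries_succ, hn, ← MonoidHom.range_eq_map,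
        Subgroup.range_subtype]
    have hEnt : Nontrivial E := by
      rw [Subgroup.nontrivial_iff_ne_bot]
      exact fun h => hs ⟨⟨n, h⟩⟩
    obtain ⟨e⟩ := ((hH.subgroup N).subgroup E).mulEquiv_sl25 hEp
    have hMna : ¬ IsMulCommutative M := by
      intro hc
      have h1 : ∀ a b : SL25, a * b = b * a := fun a b => by
        apply e.symm.injective
        rw [map_mul, map_mul]
        apply (E.equivMapOfInjective N.subtype N.subtype_injective).injective
        rw [map_mul, map_mul]
        exact hc.is_comm.comm _ _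
      exact absurd (h1 Cfsg.Agent.S3374.slW (Cfsg.Agent.S3374.slU 1)) (by decide +kernel)
    have hMN := hNmin M hMn (Subgroup.map_subtype_le E) hMna
    exact Or.inr ⟨((MulEquiv.subgroupCongr hMN).symm.trans
      (E.equivMapOfInjective N.subtype N.subtype_injective).symm).trans e⟩
  haveI := hs
  set D : Subgroup H := ⁅N, N⁆ with hD
  have hDN : D ≤ N := Subgroup.commutator_le_self N
  have hcom : IsMulCommutative D := by
    by_contra hc
    have h := hNmin D (Subgroup.commutator_normal N N) hDN hc
    have h1 : commutator N = ⊤ := by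
      apply Subgroup.map_injective N.subtype_injective
      rw [Subgroup.map_subtype_commutator, ← MonoidHom.range_eq_map, Subgroup.range_subtype, ← hD, h]
    haveI : Nontrivial N := by
      by_contra hh
      rw [not_nontrivial_iff_subsingleton] at hh
      exact hNna ⟨⟨fun a b => Subsingleton.elim _ _⟩⟩
    exact (Group.IsSolvable.commutator_lt_top_of_nontrivial N).ne h1
  have hDA := commutator_le_of_min A N hAc hAmax hNle hcom
  haveI hnil : Group.IsNilpotent N := by
    refine Subgroup.isNilpotent_of_lowerCentralSeries_eq_bot (n := 2) ?_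
    rw [Subgroup.lowerCentralSeries_succ, Subgroup.lowerCentralSeries_succ, Subgroup.lowerCentralSeries_zero,
      Subgroup.commutator_eq_bot_iff_le_centralizer]
    exact hDA.trans (Subgroup.le_centralizer_iff.1 hNle)
  let P : Sylow 2 N := default
  haveI hPn : (P : Subgroup N).Normal :=
    Sylow.normal_of_normalizerCondition Group.normalizerCondition_of_isNilpotent P
  have hnc : ¬ IsCyclic (P : Subgroup N) := by
    intro hc
    apply hNna
    haveI : IsZGroup N := by
      refine ⟨fun p hp Q => ?_⟩
      haveI := Fact.mk hp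
      by_cases hp2 : p = 2
      swap
      · exact (hH.subgroup N).isCyclic_odd hp2 _ Q.2
      subst hp2
      have := Sylow.unique_of_normal P hPn
      rwa [Subsingleton.elim Q P]
    exact ⟨⟨fun a b => (IsCyclic.commGroup (α := N)).mul_comm a b⟩⟩
  obtain ⟨m, hm, ⟨q⟩⟩ := ((hH.subgroup N).cyclic_or_quaternion (P : Subgroup N) P.2).resolve_left hnc
  haveI : (P : Subgroup N).Characteristic := P.characteristic_of_normal hPn
  set M := (P : Subgroup N).map N.subtype with hM
  have hMn : M.Normal := ConjAct.normal_of_characteristic_of_normal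
  let j : QuaternionGroup (2 ^ m) ≃* M :=
    q.symm.trans ((P : Subgroup N).equivMapOfInjective N.subtype N.subtype_injective)
  have hMna : ¬ IsMulCommutative M := by
    intro hc
    apply hnc
    haveI : IsMulCommutative (P : Subgroup N) := ⟨⟨fun a b => by
      apply ((P : Subgroup N).equivMapOfInjective N.subtype N.subtype_injective).injective
      rw [map_mul, map_mul]
      exact hc.is_comm.comm _ _⟩⟩
    exact (hH.subgroup N).isCyclic_of_comm _ fun a ha b hb =>
      congrArg Subtype.val (mul_comm' (⟨a, ha⟩ : (P : Subgroup N)) ⟨b, hb⟩)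
  have hMN := hNmin M hMn (Subgroup.map_subtype_le _) hMna
  -- the quaternion group has class two
  have hm1 : m = 1 := by
    have hjN : ∀ x, ((j x : M) : H) ∈ N := fun x => hMN.le (j x).2
    have hc := hDA (Subgroup.commutator_mem_commutator
      (hjN (QuaternionGroup.a 1)) (hjN (QuaternionGroup.xa 0)))
    have h2 : ((j ⁅(QuaternionGroup.a 1 : QuaternionGroup (2 ^ m)), (QuaternionGroup.xa 0 : QuaternionGroup (2 ^ m))⁆ : M) : H) =
        ⁅((j (QuaternionGroup.a 1) : M) : H), ((j (QuaternionGroup.xa 0) : M) : H)⁆ := by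
      simp only [commutatorElement_def, map_mul, map_inv, Subgroup.coe_mul, Subgroup.coe_inv]
    rw [← h2] at hc
    have h3 : Commute ⁅(QuaternionGroup.a 1 : QuaternionGroup (2 ^ m)), (QuaternionGroup.xa 0 : QuaternionGroup (2 ^ m))⁆
        (QuaternionGroup.xa 0) := by
      apply j.injective
      rw [map_mul, map_mul]
      exact Subtype.ext (Subgroup.mem_centralizer_iff.1 (hNle (hjN (QuaternionGroup.xa 0))) _ hc)
    have e1 : ⁅(QuaternionGroup.a 1 : QuaternionGroup (2 ^ m)), (QuaternionGroup.xa 0 : QuaternionGroup (2 ^ m))⁆ =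
        QuaternionGroup.a 2 := by
      rw [commutatorElement_def, mul_inv_eq_iff_eq_mul, mul_inv_eq_iff_eq_mul]
      simp only [QuaternionGroup.a_mul_xa, QuaternionGroup.xa_mul_a, QuaternionGroup.a_mul_a]
      congr 1; ring
    rw [e1, commute_iff_eq, QuaternionGroup.a_mul_xa, QuaternionGroup.xa_mul_a] at h3
    injection h3 with h3
    have h4 : ((4 : ℕ) : ZMod (2 * 2 ^ m)) = 0 := by push_cast; linear_combination -h3
    rw [ZMod.natCast_eq_zero_iff, show 2 * 2 ^ m = 2 ^ (m + 1) by ring,
      show 4 = 2 ^ 2 from rfl, Nat.pow_dvd_pow_iff_le_right (by norm_num)] at h4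
    omega
  subst hm1
  exact Or.inl ⟨(MulEquiv.subgroupCongr hMN).symm.trans j.symm⟩

end CfsgLib.Frobenius.Zass
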