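import Mathlib
import Cfsg.Agent.Frobenius.Zassenhaus.Product
import Cfsg.Agent.RegularSolvable.Semilinear
import Cfsg.Agent.RegularSolvable.Main
import Cfsg.Agent.Zsigmondy.Main

/-! # Nonsolvable regular linear groups -/

set_option autoImplicit false
set_option linter.style.haveILetI false

namespace CfsgLib.Frobenius.Zass

open CfsgLib.Frobenius CfsgLib.PermGroups.FPFLinear CfsgLib.RegularSolvable CfsgLib.Zsigmondy

/-- A fixed-point-free plane matrix of exponent five is not conjugate to its square. -/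
theorem not_conj_sq {F : Type*} [Field F] (A P Q : Matrix (Fin 2) (Fin 2) F) (hQP : Q * P = 1)
    (hA : A ^ 5 = 1) (hfix : (A - 1).det ≠ 0) (h : P * A * Q = A * A) : False := by
  have hCH : A * A = A.trace • A - A.det • (1 : Matrix (Fin 2) (Fin 2) F) := by
    ext i j
    fin_cases i <;> fin_cases j <;>
      simp [Matrix.mul_apply, Fin.sum_univ_two, Matrix.trace_fin_two, Matrix.det_fin_two] <;> ring
  have hd : A.det = 1 := by
    have h1 : A.det * A.det = A.det := by
      rw [← Matrix.det_mul, ← h, Matrix.det_mul, Matrix.det_mul, mul_comm P.det, mul_assoc,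
        mul_comm P.det, ← Matrix.det_mul Q P, hQP, Matrix.det_one, mul_one]
    have h2 : A.det ≠ 0 := by
      intro h0
      have h5 := congrArg Matrix.det hA
      rw [Matrix.det_pow, h0, Matrix.det_one, zero_pow (by norm_num)] at h5
      exact zero_ne_one h5
    exact mul_right_cancel₀ h2 (h1.trans (one_mul _).symm)
  have ht : A.trace * A.trace - 2 = A.trace := by
    have h1 : (A * A).trace = A.trace := by
      rw [← h, Matrix.trace_mul_comm, ← mul_assoc, hQP, one_mul]
    rw [hCH, hd, Matrix.trace_sub, Matrix.trace_smul, Matrix.trace_smul, Matrix.trace_one,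
      Fintype.card_fin, smul_eq_mul, smul_eq_mul, one_mul] at h1
    exact_mod_cast h1
  rcases mul_eq_zero.1 (show (A.trace - 2) * (A.trace + 1) = 0 by linear_combination ht) with h' | h'
  · apply hfix
    rw [Matrix.det_fin_two]
    rw [Matrix.det_fin_two] at hd
    rw [Matrix.trace_fin_two] at h'
    simp [Matrix.one_apply]
    linear_combination hd - h'
  · rw [eq_neg_of_add_eq_zero_left h', hd, one_smul, neg_smul, one_smul] at hCH
    have h3 : A * A * A = 1 := by
      rw [hCH, sub_mul, neg_mul, one_mul, hCH]; abel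
    have h5 : A * A = 1 := by
      calc A * A = 1 * (A * A) := (one_mul _).symm
        _ = A ^ 5 := by rw [← h3]; simp [pow_succ, mul_assoc]
        _ = 1 := hA
    have h1 : A = 1 := by rw [h5, one_mul] at h3; exact h3
    apply hfix
    rw [h1, sub_self, Matrix.det_zero]

theorem prime_five_only {p m : ℕ} (hp : p.Prime) (h2 : p ≠ 2) (hm : m * 2 = p ^ 2 + 1) :
    Odd m ∧ ∀ s, s.Prime → s ∣ m → IsPPD s p 4 := by
  have hodd : Odd p := hp.odd_of_ne_two h2
  have hmo : Odd m := by
    obtain ⟨k, hk⟩ := hodd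
    exact ⟨k * k + k, by subst hk; nlinarith⟩
  refine ⟨hmo, fun s hs hsm => ?_⟩
  have hs2 : s ≠ 2 := fun e => Nat.not_even_iff_odd.2 hmo (even_iff_two_dvd.2 (e ▸ hsm))
  have h1 : 1 ≤ p ^ 2 := Nat.one_le_pow _ _ hp.pos
  have hP := isPPD_two_of_dvd_add_one hs hs2 h1 (hm ▸ dvd_mul_of_dvd_left hsm 2)
  refine ⟨hs, by rw [show (4 : ℕ) = 2 * 2 from rfl, pow_mul]; exact hP.dvd, fun k hk hk4 hd => ?_⟩
  have h3 : s ∣ (p ^ 2) ^ k - 1 := by
    refine hd.trans ?_
    rw [← pow_mul, mul_comm, pow_mul]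
    exact Nat.sub_one_dvd_pow_sub_one (p ^ k) 2
  obtain ⟨j, rfl⟩ := (hP.dvd_iff h1 two_pos k).1 h3
  obtain rfl : j = 1 := by omega
  rw [mul_one] at hd
  exact hP.2.2 1 one_pos one_lt_two (by rwa [pow_one])

set_option synthInstance.maxSize 4000 in
set_option synthInstance.maxHeartbeats 400000 in
theorem regular_arith : ∀ p : ℕ, p < 120 → p + 1 ∣ 120 → p.Prime → 120 ∣ p ^ 2 - 1 →
    Nat.Coprime ((p ^ 2 - 1) / 120) 30 → 0 < (p ^ 2 - 1) / 120 →
    (p = 11 ∧ (p ^ 2 - 1) / 120 = 1) ∨ (p = 29 ∧ (p ^ 2 - 1) / 120 = 7) ∨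
    (p = 59 ∧ (p ^ 2 - 1) / 120 = 29) := by decide +kernel

variable {p : ℕ} [Fact p.Prime] {V : Type*} [AddCommGroup V] [Module (ZMod p) V] [Finite V]
  {H : Subgroup (V ≃ₗ[ZMod p] V)}

theorem not_irr_of_commute_core [Nontrivial V] (E : Subgroup H) (e : E ≃* SL25) (N : Subgroup H)
    (hc : ∀ s ∈ E, ∀ x ∈ N, s * x = x * s) : ¬ Irr N := by
  intro hN
  haveI := isCyclic_centralizer hN
  have hle : E ≤ Subgroup.centralizer (N : Set H) := fun s hs =>
    Subgroup.mem_centralizer_iff.2 fun x hx => (hc s hs x hx).symm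
  haveI : IsCyclic E := isCyclic_of_injective (Subgroup.inclusion hle) (Subgroup.inclusion_injective hle)
  letI := IsCyclic.commGroup (α := E)
  have h1 : ∀ a b : SL25, a * b = b * a := fun a b => by
    apply e.symm.injective
    rw [map_mul, map_mul, mul_comm]
  exact absurd (h1 Cfsg.Agent.S3374.slW (Cfsg.Agent.S3374.slU 1)) (by decide +kernel)

/-- The nonsolvable regular linear groups. -/
theorem regular_nonsolvable (ht : TransOnVectors H) (hf : FreeOnVectors H) (hns : ¬ Group.IsSolvable H) :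
    (Nat.card V = 121 ∧ Nonempty (H ≃* SL25)) ∨
    (Nat.card V = 841 ∧ Nonempty (H ≃* SL25 × Multiplicative (ZMod 7))) ∨
    (Nat.card V = 3481 ∧ Nonempty (H ≃* SL25 × Multiplicative (ZMod 29))) := by
  classical
  haveI := finite_group (H := H)
  haveI : Nontrivial V := by
    by_contra hh
    rw [not_nontrivial_iff_subsingleton] at hh
    haveI : Subsingleton H := ⟨fun a b => Subtype.ext (LinearEquiv.ext fun v => Subsingleton.elim _ _)⟩
    exact hns inferInstance
  haveI : Module.Finite (ZMod p) V := Module.Finite.of_finite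
  have hp := (Fact.out : p.Prime)
  have hG : IsFpf H := IsFpf.of_rep_zmod (endHom H) (free_rep hf)
  obtain ⟨G₀, -, hidx, E, M, hEM, hbot, hcomm, ⟨e⟩, hMZ, hco⟩ := exists_nonsolvable_structure' hG hns
  set m := Nat.card M with hm
  have hm0 : 0 < m := Nat.card_pos
  -- the product map
  have hcm : ∀ (s : E) (x : M), Commute (E.subtype s) (M.subtype x) := fun s x => hcomm s s.2 x x.2
  let μ : E × M →* H := MonoidHom.noncommCoprod E.subtype M.subtype hcm
  have hμ : Function.Injective μ := Subgroup.mul_injective_of_disjoint (disjoint_iff.2 hbot)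
  have hμr : μ.range = G₀ := by
    show (MonoidHom.noncommCoprod E.subtype M.subtype _).range = G₀
    rw [MonoidHom.noncommCoprod_range, Subgroup.range_subtype, Subgroup.range_subtype, hEM]
  have hG₀ : Nat.card G₀ = 120 * m := by
    rw [← hμr, ← Nat.card_congr (MonoidHom.ofInjective hμ).toEquiv, Nat.card_prod, card_core E e]
  set n := Module.finrank (ZMod p) V with hn
  have hH : Nat.card H = p ^ n - 1 := card_group ht hf
  have hcard : 120 * m * G₀.index = p ^ n - 1 := by rw [← hH, ← G₀.card_mul_index, hG₀]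
  have hppd : ∀ r, IsPPD r p n → ¬ r ∣ m := by
    intro r hr hrm
    have := Fact.mk hr.prime
    obtain ⟨a, ha⟩ := exists_prime_orderOf_dvd_card' (G := M) r hrm
    refine not_irr_of_commute_core E e (Subgroup.zpowers (a : H)) (fun s hs x hx => ?_)
      (irr_of_not_dvd hf _ fun k hk hkn hd => hr.2.2 k hk hkn ?_)
    · obtain ⟨i, rfl⟩ := hx
      exact hcomm s hs _ (zpow_mem a.2 i)
    · rw [Nat.card_zpowers, Subgroup.orderOf_coe, ha, Nat.card_zmod] at hd
      exact hd
  have hn0 : 0 < n := Module.finrank_pos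
  have hn1 : n ≠ 1 := by
    intro h1
    refine not_irr_of_commute_core E e ⊥ (fun s _ x hx => by rw [Subgroup.mem_bot.1 hx, mul_one, one_mul])
      (irr_of_not_dvd hf _ fun k hk hkn => ?_)
    omega
  have hp2 : p ≠ 2 := by
    rintro rfl
    have h2 : 2 ∣ 2 ^ n - 1 := hcard ▸ ⟨60 * m * G₀.index, by ring⟩
    have h3 : 2 ∣ 2 ^ n := dvd_pow_self 2 hn0.ne'
    have h4 : 1 ≤ 2 ^ n := Nat.one_le_two_pow
    omega
  have hpos : 0 < G₀.index := Nat.pos_of_ne_zero Subgroup.index_ne_zero_of_finite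
  -- the dimension is two
  have hn2 : n = 2 := by
    by_contra hne
    have hn3 : 3 ≤ n := by omega
    obtain ⟨r, hr⟩ := exists_isPPD_of_three_le hp.two_le hn3 (fun hh => hp2 hh.1)
    have hcase : ∀ r, IsPPD r p n → r = 5 := by
      intro r hr
      have hrlt := hr.lt hp.one_le hn0
      have hd : r ∣ 120 * m * G₀.index := hcard ▸ hr.dvd
      rcases hr.prime.dvd_mul.1 hd with hd | hd
      · rcases hr.prime.dvd_mul.1 hd with hd | hd
        · have hle := Nat.le_of_dvd (by norm_num) hd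
          have key : ∀ r : ℕ, r < 121 → r.Prime → r ∣ 120 → r ≤ 3 ∨ r = 5 := by decide +kernel
          rcases key r (by omega) hr.prime hd with h | h
          · omega
          · exact h
        · exact absurd hd (hppd r hr)
      · have := Nat.le_of_dvd hpos hd
        rcases hidx with h | ⟨h, -⟩ <;> omega
    obtain rfl := hcase r hr
    have hn4 : n = 4 := by
      have h1 : n ∣ 4 := hr.dvd_pred hp.one_le hn0
      have := Nat.le_of_dvd (by norm_num) h1
      have h3 : n ≠ 3 := fun e3 => absurd (e3 ▸ h1) (by norm_num)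
      omega
    obtain ⟨q, hq⟩ : ∃ q, q * 2 = p ^ 2 + 1 := by
      obtain ⟨k, hk⟩ := hp.odd_of_ne_two hp2
      exact ⟨2 * k * k + 2 * k + 1, by rw [hk]; ring⟩
    obtain ⟨hqo, hqp⟩ := prime_five_only hp hp2 hq
    have hfive : ∀ s, s.Prime → s ∣ q → s = 5 := fun s hs hsd => hcase s (hn4 ▸ hqp s hs hsd)
    have hqd : q ∣ 120 * m * G₀.index := by
      rw [hcard, hn4, show (4 : ℕ) = 2 * 2 from rfl, pow_mul]
      refine (Dvd.intro 2 hq).trans ?_
      rw [show (p ^ 2) ^ 2 - 1 = (p ^ 2 + 1) * (p ^ 2 - 1) by rw [← Nat.sq_sub_sq, one_pow]]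
      exact dvd_mul_right _ _
    have hq5 : q ∣ 5 := by
      have hc : ∀ j : ℕ, ¬ 5 ∣ j → q.Coprime j := fun j hj =>
        Nat.coprime_of_dvd fun s hs hsq hsj => hj (hfive s hs hsq ▸ hsj)
      have h24 : q.Coprime 24 := hc 24 (by norm_num)
      have hmq : q.Coprime m := hc m fun h5 =>
        absurd (Nat.dvd_gcd h5 (show 5 ∣ 30 by norm_num)) (by rw [hco]; norm_num)
      have hiq : q.Coprime G₀.index := hc _ fun h5 => by
        have := Nat.le_of_dvd hpos h5
        rcases hidx with h | ⟨h, -⟩ <;> omega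
      rw [show 120 * m * G₀.index = 5 * (24 * m * G₀.index) by ring] at hqd
      exact ((h24.mul_right hmq).mul_right hiq).dvd_of_dvd_mul_right hqd
    rcases (Nat.dvd_prime Nat.prime_five).1 hq5 with rfl | rfl
    · have : p ^ 2 = 1 := by omega
      exact absurd (by simpa using this) hp.ne_one
    · have : p ^ 2 = 9 := by omega
      have hp3 : p = 3 := by nlinarith
      subst hp3
      rw [hn4] at hcard
      norm_num at hcard
      nlinarith
  rw [hn2] at hcard
  -- the index is one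
  have hidx1 : G₀.index = 1 := by
    refine hidx.resolve_right ?_
    rintro ⟨-, c, h, hc, hch⟩
    let b := Module.finBasisOfFinrankEq (ZMod p) V (hn.symm.trans hn2)
    let R : H →* Matrix (Fin 2) (Fin 2) (ZMod p) :=
      (LinearMap.toMatrixAlgEquiv b).toMonoidHom.comp (endHom H)
    refine not_conj_sq (R c) (R h) (R h⁻¹) (by rw [← map_mul, inv_mul_cancel, map_one]) ?_ ?_ ?_
    · rw [← map_pow, ← hc, pow_orderOf_eq_one, map_one]
    · intro hdet
      obtain ⟨w, hw, hw0⟩ := Matrix.exists_mulVec_eq_zero_iff.2 hdet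
      rw [Matrix.sub_mulVec, Matrix.one_mulVec, sub_eq_zero] at hw0
      have h1 : (c : V ≃ₗ[ZMod p] V) (b.equivFun.symm w) = b.equivFun.symm w := by
        apply b.equivFun.injective
        rw [b.equivFun.apply_symm_apply]
        refine Eq.trans ?_ hw0
        have h2 := LinearMap.toMatrix_mulVec_repr b b (endHom H c) (b.equivFun.symm w)
        rw [show ⇑(b.repr (b.equivFun.symm w)) = w from b.equivFun.apply_symm_apply w] at h2
        exact h2.symm
      have h3 := hf c _ (fun e0 => hw (b.equivFun.symm.map_eq_zero_iff.1 e0)) h1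
      rw [h3, orderOf_one] at hc
      norm_num at hc
    · rw [← map_mul, ← map_mul, hch, pow_two, map_mul]
  rw [hidx1, mul_one] at hcard
  -- arithmetic
  have hmp : m.Coprime (p + 1) := Nat.coprime_of_dvd fun s hs hsm hsp => by
    have hs2 : s ≠ 2 := fun e0 => absurd (Nat.dvd_gcd (e0 ▸ hsm) (show 2 ∣ 30 by norm_num))
      (by rw [hco]; norm_num)
    exact hppd s (hn2 ▸ isPPD_two_of_dvd_add_one hs hs2 hp.one_le hsp) hsm
  have hfac : p ^ 2 - 1 = (p + 1) * (p - 1) := by rw [← Nat.sq_sub_sq, one_pow]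
  have hd120 : p + 1 ∣ 120 :=
    (Nat.coprime_comm.1 hmp).dvd_of_dvd_mul_right (hcard ▸ hfac ▸ dvd_mul_right _ _)
  have hple : p < 120 := by have := Nat.le_of_dvd (by norm_num) hd120; omega
  have key := regular_arith
  have hdiv : (p ^ 2 - 1) / 120 = m := by rw [← hcard, Nat.mul_div_cancel_left _ (by norm_num)]
  have hV : Nat.card V = p ^ 2 := by
    rw [Module.natCard_eq_pow_finrank (K := ZMod p) (V := V), Nat.card_zmod, ← hn, hn2]
  let φ : H ≃* E × M := ((MonoidHom.ofInjective hμ).trans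
    ((MulEquiv.subgroupCongr (hμr.trans (Subgroup.index_eq_one.1 hidx1))).trans Subgroup.topEquiv)).symm
  have hzm : ∀ k, m = k → k.Prime → Nonempty (M ≃* Multiplicative (ZMod k)) := by
    intro k hk hkp
    have := Fact.mk hkp
    haveI : IsCyclic M := isCyclic_of_prime_card (p := k) (hm.symm.trans hk)
    exact ⟨mulEquivOfCyclicCardEq (by rw [← hm, hk, Nat.card_congr Multiplicative.toAdd, Nat.card_zmod])⟩
  rcases key p hple hd120 hp ⟨m, hcard.symm⟩ (hdiv ▸ hco) (hdiv ▸ hm0) with ⟨rfl, hk⟩ | ⟨rfl, hk⟩ | ⟨rfl, hk⟩ <;>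
    rw [hdiv] at hk
  · left
    haveI : Subsingleton M := (Nat.card_eq_one_iff_unique.1 (hm.symm.trans hk)).1
    haveI : Unique M := ⟨⟨1⟩, fun a => Subsingleton.elim a 1⟩
    exact ⟨hV.trans (by norm_num), ⟨φ.trans (MulEquiv.prodUnique.trans e)⟩⟩
  · right; left
    obtain ⟨g⟩ := hzm 7 hk (by norm_num)
    exact ⟨hV.trans (by norm_num), ⟨φ.trans (MulEquiv.prodCongr e g)⟩⟩
  · right; right
    obtain ⟨g⟩ := hzm 29 hk (by norm_num)
    exact ⟨hV.trans (by norm_num), ⟨φ.trans (MulEquiv.prodCongr e g)⟩⟩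

end CfsgLib.Frobenius.Zass
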